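import Cfsg.Prelude.Def_SteinbergCover
import Cfsg.Agent.ChevalleyStructure.St.Functional
import Cfsg.Agent.ChevalleyStructure.St.TabAll
import Cfsg.Agent.S1031
import Cfsg.Agent.S1032
import Cfsg.Agent.ChevalleyStructure.SteinbergBruhat
import Cfsg.Agent.ChevalleyStructure.RootWord
import Cfsg.Agent.ChevalleyStructure.RootComb
import Cfsg.Agent.ChevalleyStructure.Triangular
import Cfsg.Agent.S1033
import Cfsg.Agent.ChevalleyStructure.Elts
import Cfsg.Agent.S1025
set_option linter.all false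

-- part: H133/ScRels
section
/-!
# The group presented by (R1), (R2) only: the relations as identities

Port of `ChevalleyStructure.St.Rels` to `D.SteinbergCover K`: for any Chevalley datum `D` and field `K`, the defining
relations of `D.SteinbergCover K` as identities between the generators `x̄_r(t) = D.scGen K r t`, words in them,
conjugation form of the commutator relation.
-/

set_option autoImplicit false

namespace Cfsg.Agent.H133.ScRels

open Cfsg.Lie

universe u

variable {K : Type u} [Field K] (D : ChevalleyDatum)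

/-- The quotient map from the free group. -/
abbrev mk (K : Type u) [Field K] : FreeGroup (Fin D.nroots × K) →* D.SteinbergCover K :=
  PresentedGroup.mk (D.steinbergRelsAB K)

/-- The element `x̄_{r₁}(t₁) x̄_{r₂}(t₂) ⋯` of a word. -/
def word (K : Type u) [Field K] (w : List (ℕ × K)) : D.SteinbergCover K :=
  (w.map fun p => D.scGen K p.1 p.2).prod

variable {D}

omit [Field K] in
theorem stX_of_lt {r : ℕ} (h : r < D.nroots) (t : K) : D.stX r t = FreeGroup.of (⟨r, h⟩, t) := dif_pos h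

omit [Field K] in
theorem stX_of_not_lt {r : ℕ} (h : ¬ r < D.nroots) (t : K) : D.stX r t = 1 := dif_neg h

theorem mk_stX (r : ℕ) (t : K) : mk D K (D.stX r t) = D.scGen K r t := rfl

theorem scGen_of_not_lt {r : ℕ} (h : ¬ r < D.nroots) (t : K) : D.scGen K r t = 1 := by
  rw [← mk_stX, stX_of_not_lt h, map_one]

theorem scGen_of_lt {r : ℕ} (h : r < D.nroots) (t : K) :
    D.scGen K r t = PresentedGroup.of (⟨r, h⟩, t) := by
  rw [← mk_stX, stX_of_lt h]; rfl

theorem word_nil : word D K [] = 1 := rfl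

theorem word_cons (p : ℕ × K) (w : List (ℕ × K)) :
    word D K (p :: w) = D.scGen K p.1 p.2 * word D K w := by
  show (List.map _ (p :: w)).prod = _
  rw [List.map_cons, List.prod_cons]; rfl

theorem word_append (w v : List (ℕ × K)) : word D K (w ++ v) = word D K w * word D K v := by
  show (List.map _ (w ++ v)).prod = _
  rw [List.map_append, List.prod_append]; rfl

theorem mk_stWord (w : List (ℕ × K)) : mk D K (D.stWord w) = word D K w := by
  show mk D K ((w.map fun p => D.stX p.1 p.2).prod) = _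
  rw [map_list_prod, List.map_map]; rfl

/-- (R1) -/
theorem scGen_add {r : ℕ} (hr : r < D.nroots) (t₁ t₂ : K) :
    D.scGen K r t₁ * D.scGen K r t₂ = D.scGen K r (t₁ + t₂) := by
  rw [← mk_stX, ← mk_stX, ← mk_stX, ← map_mul]
  exact PresentedGroup.mk_eq_mk_of_mul_inv_mem (Or.inl ⟨r, t₁, t₂, hr, rfl⟩)

theorem scGen_add' (r : ℕ) (t₁ t₂ : K) :
    D.scGen K r t₁ * D.scGen K r t₂ = D.scGen K r (t₁ + t₂) := by
  by_cases hr : r < D.nroots
  · exact scGen_add hr t₁ t₂
  · rw [scGen_of_not_lt hr, scGen_of_not_lt hr, scGen_of_not_lt hr, one_mul]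

theorem scGen_zero (r : ℕ) : D.scGen K r 0 = 1 := by
  have h := scGen_add' (D := D) (K := K) r 0 0
  rw [add_zero] at h
  exact mul_eq_left.1 h

theorem scGen_inv (r : ℕ) (t : K) : (D.scGen K r t)⁻¹ = D.scGen K r (-t) :=
  inv_eq_of_mul_eq_one_right (by rw [scGen_add', add_neg_cancel, scGen_zero])

/-- (R2) -/
theorem scGen_comm {r s : ℕ} (hr : r < D.nroots) (hs : s < D.nroots) (hsr : s ≠ r) (hsn : s ≠ D.neg r)
    (t u : K) :
    (D.scGen K s u)⁻¹ * (D.scGen K r t)⁻¹ * D.scGen K s u * D.scGen K r t = word D K (D.commWord K r s t u) := by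
  rw [← mk_stWord, ← mk_stX, ← mk_stX, ← map_inv, ← map_inv, ← map_mul, ← map_mul, ← map_mul]
  exact PresentedGroup.mk_eq_mk_of_mul_inv_mem (Or.inr ⟨r, s, t, u, hr, hs, hsr, hsn, rfl⟩)

/-- (R2) as a conjugation formula: `x̄_r(t)⁻¹ x̄_s(u) x̄_r(t) = x̄_s(u) · (commutator word)`. -/
theorem scGen_conj {r s : ℕ} (hr : r < D.nroots) (hs : s < D.nroots) (hsr : s ≠ r) (hsn : s ≠ D.neg r)
    (t u : K) :
    (D.scGen K r t)⁻¹ * D.scGen K s u * D.scGen K r t = D.scGen K s u * word D K (D.commWord K r s t u) := by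
  rw [← scGen_comm hr hs hsr hsn]; group

/-- `n̄_r(t)` -/
theorem mk_stN (r : ℕ) (t : K) :
    mk D K (D.stN r t) = D.scGen K r t * D.scGen K (D.neg r) (-t⁻¹) * D.scGen K r t := by
  show mk D K (D.stWord (D.nWord r t)) = _
  rw [mk_stWord]
  show word D K [(r, t), (D.neg r, -t⁻¹), (r, t)] = _
  rw [word_cons, word_cons, word_cons, word_nil, mul_one, mul_assoc]

theorem mk_stH (r : ℕ) (t : K) : mk D K (D.stH r t) = mk D K (D.stN r t) * mk D K (D.stN r (-1)) := by
  show mk D K (D.stWord (D.nWord r t ++ D.nWord r (-1))) = mk D K (D.stWord _) * mk D K (D.stWord _)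
  rw [mk_stWord, word_append, mk_stWord, mk_stWord]

/-- Every element of the presented group lies in a subgroup containing the generators. -/
theorem mem_of_gens (H : Subgroup (D.SteinbergCover K))
    (h : ∀ r < D.nroots, ∀ t : K, D.scGen K r t ∈ H) (g : D.SteinbergCover K) : g ∈ H := by
  refine PresentedGroup.generated_by _ H ?_ g
  rintro ⟨⟨r, hr⟩, t⟩
  rw [← scGen_of_lt]; exact h r hr t

/-- A word in generators belonging to a subgroup lies in it. -/
theorem word_mem (H : Subgroup (D.SteinbergCover K)) {w : List (ℕ × K)}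
    (h : ∀ p ∈ w, D.scGen K p.1 p.2 ∈ H) : word D K w ∈ H := by
  refine Subgroup.list_prod_mem _ ?_
  intro x hx
  obtain ⟨p, hp, rfl⟩ := List.mem_map.1 hx
  exact h p hp

end Cfsg.Agent.H133.ScRels
end

-- part: H133/ScInj
section
/-!
# Injectivity on positive subgroups of the presented group

`Uf D K f` is the subgroup of the presented group generated by the `x̄_r(t)` with `f r > 0`, `f` a linear functional
on the root tables. A homomorphism `θ` to `GL` with `θ (x̄_r(t)) = x_r(t)` is injective on it.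
-/

set_option autoImplicit false

namespace Cfsg.Agent.H133.ScInj

open Cfsg.Lie Cfsg.Agent.H133.ScRels Cfsg.Agent.ChevalleyStructure.St.Functional

universe u

variable {K : Type u} [Field K] {D : ChevalleyDatum}

/-- The subgroup generated by the `x̄_r(t)` with `0 < f r`. -/
def Uf (D : ChevalleyDatum) (K : Type u) [Field K] (f : ℕ → ℤ) : Subgroup (D.SteinbergCover K) :=
  Subgroup.closure {x | ∃ (r : ℕ) (t : K), r < D.nroots ∧ 0 < f r ∧ x = D.scGen K r t}

theorem scGen_mem_Uf {f : ℕ → ℤ} {r : ℕ} (hr : r < D.nroots) (hf : 0 < f r) (t : K) :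
    D.scGen K r t ∈ Uf D K f := Subgroup.subset_closure ⟨r, t, hr, hf, rfl⟩

/-- The tie-breaking order. -/
def rho (D : ChevalleyDatum) (f : ℕ → ℤ) (r : ℕ) : ℤ := f r * D.nroots + r

theorem rho_inj {f : ℕ → ℤ} {r s : ℕ} (hr : r < D.nroots) (hs : s < D.nroots) (h : rho D f r = rho D f s) :
    r = s := by
  unfold rho at h
  have hr' : (r : ℤ) < D.nroots := by exact_mod_cast hr
  have hs' : (s : ℤ) < D.nroots := by exact_mod_cast hs
  have h0 : (0 : ℤ) ≤ r := by positivity
  have h0' : (0 : ℤ) ≤ s := by positivity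
  have : f r = f s := by
    by_contra hne
    rcases lt_or_gt_of_ne hne with hlt | hlt
    · have : (f r + 1) * (D.nroots : ℤ) ≤ f s * D.nroots :=
        mul_le_mul_of_nonneg_right (by omega) (by omega)
      nlinarith
    · have : (f s + 1) * (D.nroots : ℤ) ≤ f r * D.nroots :=
        mul_le_mul_of_nonneg_right (by omega) (by omega)
      nlinarith
  rw [this] at h
  omega

theorem f_le_of_rho_le {f : ℕ → ℤ} {r s : ℕ} (_hr : r < D.nroots) (hs : s < D.nroots)
    (h : rho D f r ≤ rho D f s) : f r ≤ f s := by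
  by_contra hlt
  unfold rho at h
  have hs' : (s : ℤ) < D.nroots := by exact_mod_cast hs
  have h0 : (0 : ℤ) ≤ r := by positivity
  have : (f s + 1) * (D.nroots : ℤ) ≤ f r * D.nroots :=
    mul_le_mul_of_nonneg_right (by omega) (by omega)
  nlinarith

theorem rho_lt_of_f_lt {f : ℕ → ℤ} {r s : ℕ} (hr : r < D.nroots) (_hs : s < D.nroots)
    (h : f r < f s) : rho D f r < rho D f s := by
  unfold rho
  have hr' : (r : ℤ) < D.nroots := by exact_mod_cast hr
  have h0 : (0 : ℤ) ≤ s := by positivity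
  have : (f r + 1) * (D.nroots : ℤ) ≤ f s * D.nroots :=
    mul_le_mul_of_nonneg_right (by omega) (by omega)
  nlinarith

theorem le_rho_iff {f : ℕ → ℤ} {r : ℕ} (hr : r < D.nroots) : (D.nroots : ℤ) ≤ rho D f r ↔ 0 < f r := by
  unfold rho
  have hr' : (r : ℤ) < D.nroots := by exact_mod_cast hr
  have h0 : (0 : ℤ) ≤ r := by positivity
  constructor
  · intro h
    by_contra hlt
    have : f r * (D.nroots : ℤ) ≤ 0 := mul_nonpos_of_nonpos_of_nonneg (by omega) (by omega)
    omega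
  · intro h
    have : 1 * (D.nroots : ℤ) ≤ f r * D.nroots := mul_le_mul_of_nonneg_right (by omega) (by omega)
    omega

/-- The filtration. -/
def UU (D : ChevalleyDatum) (K : Type u) [Field K] (f : ℕ → ℤ) (k : ℤ) : Subgroup (D.SteinbergCover K) :=
  Subgroup.closure {x | ∃ (r : ℕ) (t : K), r < D.nroots ∧ k ≤ rho D f r ∧ x = D.scGen K r t}

theorem scGen_mem_UU {f : ℕ → ℤ} {k : ℤ} {r : ℕ} (hr : r < D.nroots) (hf : k ≤ rho D f r) (t : K) :
    D.scGen K r t ∈ UU D K f k := Subgroup.subset_closure ⟨r, t, hr, hf, rfl⟩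

theorem Uf_eq_UU (f : ℕ → ℤ) : Uf D K f = UU D K f D.nroots := by
  unfold Uf UU
  congr 1
  ext x
  constructor
  · rintro ⟨r, t, hr, hf, rfl⟩
    exact ⟨r, t, hr, (le_rho_iff hr).2 hf, rfl⟩
  · rintro ⟨r, t, hr, hf, rfl⟩
    exact ⟨r, t, hr, (le_rho_iff hr).1 hf, rfl⟩

/-- Conjugation step: for roots with positive `f`, `x̄_s(u) x̄_r(t) = x̄_r(t) · y` with `y` in the next layer. -/
theorem UU_step (hw : Wf D) {f : ℕ → ℤ} (hf : Fun D f) {k : ℤ} (hk : (D.nroots : ℤ) ≤ k) {r : ℕ}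
    (hr : r < D.nroots) (hrk : rho D f r = k) {g : D.SteinbergCover K} (hg : g ∈ UU D K f k) :
    ∃ t : K, ∃ y ∈ UU D K f (k + 1), g = D.scGen K r t * y := by
  have hfr : 0 < f r := (le_rho_iff hr).1 (by rw [hrk]; exact hk)
  have key : ∀ (s : ℕ) (u : K), s < D.nroots → k ≤ rho D f s → ∀ y : D.SteinbergCover K,
      (∃ t : K, ∃ z ∈ UU D K f (k + 1), y = D.scGen K r t * z) →
      ∃ t : K, ∃ z ∈ UU D K f (k + 1), D.scGen K s u * y = D.scGen K r t * z := by
    intro s u hs hks y hy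
    obtain ⟨t, z, hz, rfl⟩ := hy
    by_cases hsr : s = r
    · subst hsr
      exact ⟨u + t, z, hz, by rw [← mul_assoc, scGen_add']⟩
    have hks' : k + 1 ≤ rho D f s := by
      rcases hks.lt_or_eq with h | h
      · exact h
      · exact absurd (rho_inj hs hr (by rw [← h, hrk])) hsr
    have hfs : 0 < f s := (le_rho_iff hs).1 (by omega)
    have hsn : s ≠ D.neg r := by
      intro h
      rw [h, hf.neg r hr] at hfs
      omega
    refine ⟨t, (D.scGen K s u * word D K (D.commWord K r s t u)) * z, ?_, ?_⟩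
    · refine mul_mem (mul_mem (scGen_mem_UU hs hks' u) ?_) hz
      apply word_mem
      intro p hp
      obtain ⟨c, hc, rfl⟩ := List.mem_map.1 hp
      obtain ⟨h1, h2, h3, h4⟩ := commTerms_spec hw hr hs hc
      refine scGen_mem_UU h1 ?_ _
      have hfc := h4 f hf
      have hlt : f s < f c.1 := by
        rw [hfc]
        have e1 : 0 < (c.2.2.1 : ℤ) * f r := mul_pos (by exact_mod_cast h2) hfr
        have e2 : 1 * f s ≤ (c.2.2.2 : ℤ) * f s :=
          mul_le_mul_of_nonneg_right (by exact_mod_cast h3) hfs.le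
        omega
      have := rho_lt_of_f_lt hs h1 hlt
      show k + 1 ≤ rho D f c.1
      omega
    · rw [← scGen_conj hr hs hsr hsn]; group
  unfold UU at hg
  induction hg using Subgroup.closure_induction_left with
  | one => exact ⟨0, 1, one_mem _, by rw [scGen_zero, mul_one]⟩
  | mul_left x hx y _ ih =>
    obtain ⟨s, u, hs, hks, rfl⟩ := hx
    exact key s u hs hks y ih
  | inv_mul_cancel x hx y _ ih =>
    obtain ⟨s, u, hs, hks, rfl⟩ := hx
    rw [scGen_inv]
    exact key s (-u) hs hks y ih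

/-! ### The matrix side -/

/-- The matrix `g` maps `e_v` (for `v = -r` or `f v > -f r`) to `e_v` plus a combination of `e_u` with `f u > -f r`. -/
def Good (D : ChevalleyDatum) (f : ℕ → ℤ) (r : ℕ) (g : Matrix D.Idx D.Idx K) : Prop :=
  ∀ v : Fin D.nroots, ((v : ℕ) = D.neg r ∨ - f r < f v) →
    (∀ i, g (Sum.inl i) (Sum.inr v) = 0) ∧
    ∀ u : Fin D.nroots, ¬ (- f r < f u) → g (Sum.inr u) (Sum.inr v) = if u = v then 1 else 0

theorem good_one (f : ℕ → ℤ) (r : ℕ) : Good (K := K) D f r 1 := by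
  intro v _
  refine ⟨fun i => Matrix.one_apply_ne (by simp), fun u _ => ?_⟩
  rw [Matrix.one_apply]
  simp

theorem good_x_mul (hw : Wf D) {f : ℕ → ℤ} (hf : Fun D f) {r : ℕ} (hr : r < D.nroots) (hfr : 0 < f r) {s : ℕ}
    (hs : s < D.nroots) (hsr : s ≠ r) (hfs : f r ≤ f s) (t : K) {g : Matrix D.Idx D.Idx K}
    (hg : Good D f r g) : Good D f r (D.x K s t * g) := by
  intro v hv
  obtain ⟨hg1, hg2⟩ := hg v hv
  have hnz : ∀ w : Fin D.nroots, g (Sum.inr w) (Sum.inr v) ≠ 0 → ((w : ℕ) = D.neg r ∨ - f r < f w) := by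
    intro w hne
    by_cases hfw : - f r < f w
    · exact Or.inr hfw
    · rw [hg2 w hfw] at hne
      have hwv : w = v := by
        by_contra h
        rw [if_neg h] at hne
        exact hne rfl
      rw [hwv]
      exact hv
  have hwn : ∀ w : Fin D.nroots, ((w : ℕ) = D.neg r ∨ - f r < f w) → (w : ℕ) ≠ D.neg s := by
    intro w hw1 hws
    rcases hw1 with h | h
    · apply hsr
      rw [← hw.neg_neg s hs, ← hws, h, hw.neg_neg r hr]
    · rw [hws, hf.neg s hs] at h
      omega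
  constructor
  · intro i
    rw [Matrix.mul_apply, Fintype.sum_sum_type]
    have e1 : ∑ j, D.x K s t (Sum.inl i) (Sum.inl j) * g (Sum.inl j) (Sum.inr v) = 0 :=
      Finset.sum_eq_zero fun j _ => by rw [hg1 j, mul_zero]
    have e2 : ∑ w, D.x K s t (Sum.inl i) (Sum.inr w) * g (Sum.inr w) (Sum.inr v) = 0 := by
      refine Finset.sum_eq_zero fun w _ => ?_
      by_cases hne : g (Sum.inr w) (Sum.inr v) = 0
      · rw [hne, mul_zero]
      · rw [x_inl_inr hs t i w (hwn w (hnz w hne)), zero_mul]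
    rw [e1, e2, add_zero]
  · intro u hu
    rw [Matrix.mul_apply, Fintype.sum_sum_type]
    have e1 : ∑ j, D.x K s t (Sum.inr u) (Sum.inl j) * g (Sum.inl j) (Sum.inr v) = 0 :=
      Finset.sum_eq_zero fun j _ => by rw [hg1 j, mul_zero]
    have e2 : ∑ w, D.x K s t (Sum.inr u) (Sum.inr w) * g (Sum.inr w) (Sum.inr v) =
        ∑ w, (if u = w then (1 : K) else 0) * g (Sum.inr w) (Sum.inr v) := by
      refine Finset.sum_congr rfl fun w _ => ?_
      by_cases hne : g (Sum.inr w) (Sum.inr v) = 0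
      · rw [hne, mul_zero, mul_zero]
      · rw [x_inr_inr hw hf hs (by omega) t u w]
        rcases hnz w hne with h | h
        · rw [h, hf.neg r hr]; exact hu
        · omega
    rw [e1, e2, zero_add]
    simp only [ite_mul, one_mul, zero_mul, Finset.sum_ite_eq, Finset.mem_univ, if_true]
    exact hg2 u hu

theorem x_mul_good_apply (hw : Wf D) {f : ℕ → ℤ} (hf : Fun D f) {r : ℕ} (hr : r < D.nroots) (hfr : 0 < f r)
    (t : K) {g : Matrix D.Idx D.Idx K} (hg : Good D f r g) (i : Fin D.rank) :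
    (D.x K r t * g) (Sum.inl i) (Sum.inr ⟨D.neg r, hw.neg_lt r hr⟩) =
      (((D.coroot.getD r #[]).getD i.val 0 : ℤ) : K) * t := by
  obtain ⟨hg1, hg2⟩ := hg ⟨D.neg r, hw.neg_lt r hr⟩ (Or.inl rfl)
  have hnr : D.neg r ≠ r := by
    intro h
    have := hf.neg r hr
    rw [h] at this
    omega
  rw [Matrix.mul_apply, Fintype.sum_sum_type]
  have e1 : ∑ j, D.x K r t (Sum.inl i) (Sum.inl j) * g (Sum.inl j) (Sum.inr ⟨D.neg r, hw.neg_lt r hr⟩) = 0 :=
    Finset.sum_eq_zero fun j _ => by rw [hg1 j, mul_zero]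
  rw [e1, zero_add, Finset.sum_eq_single (⟨D.neg r, hw.neg_lt r hr⟩ : Fin D.nroots)]
  · rw [x_inl_neg hr t i _ rfl hnr, hg2 _ (by rw [hf.neg r hr]; omega), if_pos rfl, mul_one]
  · intro w _ hwne
    rw [x_inl_inr hr t i w (fun h => hwne (Fin.ext h)), zero_mul]
  · intro h
    exact absurd (Finset.mem_univ _) h

section theta

variable (θ : D.SteinbergCover K →* GL D.Idx K)
  (hθ : ∀ (r : ℕ) (t : K), r < D.nroots → ((θ (D.scGen K r t) : GL D.Idx K) : Matrix D.Idx D.Idx K) = D.x K r t)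

include hθ

theorem good_theta (hw : Wf D) {f : ℕ → ℤ} (hf : Fun D f) {r : ℕ} (hr : r < D.nroots) (hfr : 0 < f r)
    {g : D.SteinbergCover K} (hg : g ∈ UU D K f (rho D f r + 1)) :
    Good D f r ((θ g : GL D.Idx K) : Matrix D.Idx D.Idx K) := by
  have key : ∀ (s : ℕ) (u : K), s < D.nroots → rho D f r + 1 ≤ rho D f s → ∀ y : D.SteinbergCover K,
      Good D f r ((θ y : GL D.Idx K) : Matrix D.Idx D.Idx K) →
      Good D f r ((θ (D.scGen K s u * y) : GL D.Idx K) : Matrix D.Idx D.Idx K) := by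
    intro s u hs hrs y hy
    rw [map_mul, Units.val_mul, hθ s u hs]
    refine good_x_mul hw hf hr hfr hs ?_ (f_le_of_rho_le hr hs (by omega)) u hy
    rintro rfl
    omega
  unfold UU at hg
  induction hg using Subgroup.closure_induction_left with
  | one => rw [map_one, Units.val_one]; exact good_one f r
  | mul_left x hx y _ ih =>
    obtain ⟨s, u, hs, hks, rfl⟩ := hx
    exact key s u hs hks y ih
  | inv_mul_cancel x hx y _ ih =>
    obtain ⟨s, u, hs, hks, rfl⟩ := hx
    rw [scGen_inv]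
    exact key s (-u) hs hks y ih

/-- A homomorphism with `θ (x̄_r(t)) = x_r(t)` is injective on `⟨x̄_r(t) : f r > 0⟩`. -/
theorem theta_inj (hw : Wf D)
    (hco : ∀ r < D.nroots, ∃ i : Fin D.rank, (((D.coroot.getD r #[]).getD i.val 0 : ℤ) : K) ≠ 0)
    {f : ℕ → ℤ} (hf : Fun D f) {g : D.SteinbergCover K} (hg : g ∈ Uf D K f) (h1 : θ g = 1) : g = 1 := by
  obtain ⟨B, hB⟩ := Finset.exists_le ((Finset.range D.nroots).image (rho D f))
  have main : ∀ m : ℕ, ∀ k : ℤ, (D.nroots : ℤ) ≤ k → B + 1 ≤ k + m → ∀ g ∈ UU D K f k, θ g = 1 → g = 1 := by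
    intro m
    induction m with
    | zero =>
      intro k _ hBk g hg _
      have hempty : {x | ∃ (r : ℕ) (t : K), r < D.nroots ∧ k ≤ rho D f r ∧ x = D.scGen K r t} = ∅ := by
        rw [Set.eq_empty_iff_forall_notMem]
        rintro x ⟨r, t, hr, hk, _⟩
        have := hB (rho D f r) (Finset.mem_image_of_mem _ (Finset.mem_range.2 hr))
        simp only [Nat.cast_zero] at hBk
        omega
      unfold UU at hg
      rw [hempty, Subgroup.closure_empty] at hg
      exact Subgroup.mem_bot.1 hg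
    | succ m ih =>
      intro k hnk hBk g hg hg1
      by_cases hex : ∃ r < D.nroots, rho D f r = k
      · obtain ⟨r, hr, hrk⟩ := hex
        have hfr : 0 < f r := (le_rho_iff hr).1 (by omega)
        obtain ⟨t, y, hy, rfl⟩ := UU_step hw hf hnk hr hrk hg
        have hgood := good_theta θ hθ hw hf hr hfr (by rw [hrk]; exact hy)
        obtain ⟨i, hi⟩ := hco r hr
        have hent := x_mul_good_apply hw hf hr hfr t hgood i
        rw [← hθ r t hr, ← Units.val_mul, ← map_mul, hg1, Units.val_one, Matrix.one_apply_ne (by simp)] at hent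
        have ht : t = 0 := by
          rcases mul_eq_zero.1 hent.symm with h | h
          · exact absurd h hi
          · exact h
        subst ht
        rw [scGen_zero, one_mul] at hg1 ⊢
        exact ih (k + 1) (by omega) (by push_cast at hBk; omega) y hy hg1
      · have hle : UU D K f k ≤ UU D K f (k + 1) := by
          unfold UU
          apply Subgroup.closure_mono
          rintro x ⟨r, t, hr, hk, rfl⟩
          refine ⟨r, t, hr, ?_, rfl⟩
          rcases hk.lt_or_eq with h | h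
          · exact h
          · exact absurd ⟨r, hr, h.symm⟩ hex
        exact ih (k + 1) (by omega) (by push_cast at hBk; omega) g (hle hg) hg1
  rw [Uf_eq_UU] at hg
  exact main (B + 1 - D.nroots).toNat D.nroots le_rfl (by omega) g hg h1

/-- Two elements of `⟨x̄_r(t) : f r > 0⟩` with the same image are equal. -/
theorem theta_inj' (hw : Wf D)
    (hco : ∀ r < D.nroots, ∃ i : Fin D.rank, (((D.coroot.getD r #[]).getD i.val 0 : ℤ) : K) ≠ 0)
    {f : ℕ → ℤ} (hf : Fun D f) {g g' : D.SteinbergCover K} (hg : g ∈ Uf D K f) (hg' : g' ∈ Uf D K f)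
    (h : θ g = θ g') : g = g' := by
  have := theta_inj θ hθ hw hco hf (g := g⁻¹ * g') (mul_mem (inv_mem hg) hg') (by rw [map_mul, map_inv, h, inv_mul_cancel])
  exact (inv_mul_eq_one.1 this)

end theta

end Cfsg.Agent.H133.ScInj
end

-- part: H133/ScConj
section
/-!
# Conjugation formulas in the group presented by (R1), (R2)

Port of `ChevalleyStructure.St.Conj` to `D.SteinbergCover K`. `transfer`: an element of `⟨X̄_p, X̄_{-p}⟩`
(`p` fundamental) whose image in `GL` permutes the root elements by a formula `x_s(t) ↦ x_{σ s}(a t)` does the same in the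
presented group.
-/

set_option autoImplicit false

namespace Cfsg.Agent.H133.ScConj

open Cfsg.Lie Cfsg.Agent.H133.ScRels Cfsg.Agent.ChevalleyStructure.St.Functional
  Cfsg.Agent.H133.ScInj
open Cfsg.Agent.ChevalleyStructure.St.Conj (CommGen lin lin_def lin_comb lin_neg Tab)

universe u

variable {K : Type u} [Field K] {D : ChevalleyDatum}

/-- The subgroup `⟨X̄_p, X̄_{-p}⟩`. -/
def PP (D : ChevalleyDatum) (K : Type u) [Field K] (p : ℕ) : Subgroup (D.SteinbergCover K) :=
  Subgroup.closure {x | ∃ t : K, x = D.scGen K p t ∨ x = D.scGen K (D.neg p) t}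

theorem scGen_mem_PP (p : ℕ) (t : K) : D.scGen K p t ∈ PP D K p := Subgroup.subset_closure ⟨t, Or.inl rfl⟩

theorem scGen_neg_mem_PP (p : ℕ) (t : K) : D.scGen K (D.neg p) t ∈ PP D K p :=
  Subgroup.subset_closure ⟨t, Or.inr rfl⟩

/-- If `f r = 0`, conjugation by `x̄_r(t)` maps `Uf f` into itself. -/
theorem conj_mem_of_zero (hw : Wf D) {f : ℕ → ℤ} (hf : Fun D f) {r : ℕ} (hr : r < D.nroots) (hfr : f r = 0)
    (t : K) {g : D.SteinbergCover K} (hg : g ∈ Uf D K f) :
    (D.scGen K r t)⁻¹ * g * D.scGen K r t ∈ Uf D K f := by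
  unfold Uf at hg
  induction hg using Subgroup.closure_induction with
  | one => rw [mul_one, inv_mul_cancel]; exact one_mem _
  | mem x hx =>
    obtain ⟨s, u, hs, hfs, rfl⟩ := hx
    have hsr : s ≠ r := by rintro rfl; omega
    have hsn : s ≠ D.neg r := by
      rintro rfl
      rw [hf.neg r hr] at hfs
      omega
    rw [scGen_conj hr hs hsr hsn]
    refine mul_mem (scGen_mem_Uf hs hfs u) (word_mem _ ?_)
    intro p hp
    obtain ⟨c, hc, rfl⟩ := List.mem_map.1 hp
    obtain ⟨h1, h2, h3, h4⟩ := commTerms_spec hw hr hs hc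
    refine scGen_mem_Uf h1 ?_ _
    show 0 < f c.1
    rw [h4 f hf, hfr, mul_zero, zero_add]
    exact mul_pos (by exact_mod_cast h3) hfs
  | mul x y _ _ ihx ihy =>
    have : (D.scGen K r t)⁻¹ * (x * y) * D.scGen K r t =
        ((D.scGen K r t)⁻¹ * x * D.scGen K r t) * ((D.scGen K r t)⁻¹ * y * D.scGen K r t) := by group
    rw [this]; exact mul_mem ihx ihy
  | inv x _ ih =>
    have : (D.scGen K r t)⁻¹ * x⁻¹ * D.scGen K r t = ((D.scGen K r t)⁻¹ * x * D.scGen K r t)⁻¹ := by group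
    rw [this]; exact inv_mem ih

/-- If `f p = 0`, the elements of `⟨X̄_p, X̄_{-p}⟩` normalise `Uf f`. -/
theorem PP_conj_mem (hw : Wf D) {f : ℕ → ℤ} (hf : Fun D f) {p : ℕ} (hp : p < D.nroots) (hfp : f p = 0)
    {h : D.SteinbergCover K} (hh : h ∈ PP D K p) {g : D.SteinbergCover K} (hg : g ∈ Uf D K f) :
    h * g * h⁻¹ ∈ Uf D K f := by
  have hgen : ∀ r, (r = p ∨ r = D.neg p) → ∀ t : K, ∀ g ∈ Uf D K f,
      (D.scGen K r t) * g * (D.scGen K r t)⁻¹ ∈ Uf D K f := by
    intro r hr t g hg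
    have hr' : r < D.nroots ∧ f r = 0 := by
      rcases hr with rfl | rfl
      · exact ⟨hp, hfp⟩
      · exact ⟨hw.neg_lt p hp, by rw [hf.neg p hp, hfp, neg_zero]⟩
    have := conj_mem_of_zero hw hf hr'.1 hr'.2 (-t) hg
    rwa [scGen_inv, neg_neg, ← scGen_inv] at this
  unfold PP at hh
  induction hh using Subgroup.closure_induction_left generalizing g with
  | one => simpa using hg
  | mul_left x hx y _ ih =>
    obtain ⟨t, ht⟩ := hx
    have e : x * y * g * (x * y)⁻¹ = x * (y * g * y⁻¹) * x⁻¹ := by group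
    rw [e]
    rcases ht with rfl | rfl
    · exact hgen p (Or.inl rfl) t _ (ih hg)
    · exact hgen (D.neg p) (Or.inr rfl) t _ (ih hg)
  | inv_mul_cancel x hx y _ ih =>
    obtain ⟨t, ht⟩ := hx
    have e : x⁻¹ * y * g * (x⁻¹ * y)⁻¹ = x⁻¹ * (y * g * y⁻¹) * (x⁻¹)⁻¹ := by group
    rw [e]
    rcases ht with rfl | rfl
    · rw [scGen_inv]
      exact hgen p (Or.inl rfl) (-t) _ (ih hg)
    · rw [scGen_inv]
      exact hgen (D.neg p) (Or.inr rfl) (-t) _ (ih hg)

/-- Under `CommGen`, `x̄_q(t)` lies in the group generated by the `x̄_s(u)`, `s ≠ ±p`, `f s > 0`. -/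
theorem mem_of_commGen (hw : Wf D) {f : ℕ → ℤ} (hf : Fun D f) {p q : ℕ} (hp : p < D.nroots)
    (hq : q = p ∨ q = D.neg p) (hfq : 0 < f q)
    (h : CommGen D f p q) (t : K) :
    D.scGen K q t ∈ Subgroup.closure {x | ∃ (s : ℕ) (u : K), s < D.nroots ∧ s ≠ p ∧ s ≠ D.neg p ∧ 0 < f s ∧
      x = D.scGen K s u} := by
  obtain ⟨r, s, hr, hs, hrp, hrn, hsp, hsn, hsr, hsnr, hfr, hfs, A, B, C, j, hT, hC, hAB⟩ := h
  have hmem : ∀ a u, a < D.nroots → a ≠ p → a ≠ D.neg p → 0 < f a → D.scGen K a u ∈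
      Subgroup.closure {x | ∃ (s : ℕ) (u : K), s < D.nroots ∧ s ≠ p ∧ s ≠ D.neg p ∧ 0 < f s ∧
      x = D.scGen K s u} := fun a u h1 h2 h3 h4 => Subgroup.subset_closure ⟨a, u, h1, h2, h3, h4, rfl⟩
  set H := Subgroup.closure {x | ∃ (s : ℕ) (u : K), s < D.nroots ∧ s ≠ p ∧ s ≠ D.neg p ∧ 0 < f s ∧
      x = D.scGen K s u} with hH
  have hCC : (C : K) * C = 1 := by rcases hC with rfl | rfl <;> simp
  have hcomm := scGen_comm hr hs hsr hsnr (-((C : K) * t)) (1 : K)
  have hword : word D K (D.commWord K r s (-((C : K) * t)) 1) =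
      word D K (A.map fun c => (c.1, (c.2.1 : K) * (-(-((C : K) * t))) ^ c.2.2.1 * 1 ^ c.2.2.2)) *
        D.scGen K q t *
      word D K (B.map fun c => (c.1, (c.2.1 : K) * (-(-((C : K) * t))) ^ c.2.2.1 * 1 ^ c.2.2.2)) := by
    show word D K ((D.commTerms r s).map fun c => (c.1, (c.2.1 : K) * (-(-((C : K) * t))) ^ c.2.2.1 * 1 ^ c.2.2.2)) = _
    rw [hT, List.map_append, List.map_cons, word_append, word_cons, ← mul_assoc]
    congr 2
    show D.scGen K q ((C : K) * (-(-((C : K) * t))) ^ 1 * 1 ^ j) = _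
    rw [neg_neg, pow_one, one_pow, mul_one, ← mul_assoc, hCC, one_mul]
  have hpart : ∀ L : List (ℕ × ℤ × ℕ × ℕ), (∀ c ∈ L, c ∈ D.commTerms r s ∧ c.1 ≠ q) →
      word D K (L.map fun c => (c.1, (c.2.1 : K) * (-(-((C : K) * t))) ^ c.2.2.1 * 1 ^ c.2.2.2)) ∈ H := by
    intro L hL
    refine word_mem _ ?_
    intro x hx
    obtain ⟨c, hc, rfl⟩ := List.mem_map.1 hx
    obtain ⟨hcT, hcq⟩ := hL c hc
    obtain ⟨h1, h2, h3, h4⟩ := commTerms_spec hw hr hs hcT
    have hfc : 0 < f c.1 := by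
      rw [h4 f hf]
      have e1 : 0 < (c.2.2.1 : ℤ) * f r := mul_pos (by exact_mod_cast h2) hfr
      have e2 : 0 < (c.2.2.2 : ℤ) * f s := mul_pos (by exact_mod_cast h3) hfs
      omega
    have hcp : c.1 ≠ p ∧ c.1 ≠ D.neg p := by
      rcases hq with rfl | rfl
      · refine ⟨hcq, fun h => ?_⟩
        rw [h, hf.neg _ hp] at hfc
        omega
      · refine ⟨fun h => ?_, hcq⟩
        rw [h] at hfc
        rw [hf.neg _ hp] at hfq
        omega
    exact hmem _ _ h1 hcp.1 hcp.2 hfc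
  have hA := hpart A fun c hc => ⟨by rw [hT]; exact List.mem_append_left _ hc, hAB c (List.mem_append_left _ hc)⟩
  have hB := hpart B fun c hc => ⟨by rw [hT]; exact List.mem_append_right _ (List.mem_cons_of_mem _ hc),
    hAB c (List.mem_append_right _ hc)⟩
  rw [hword] at hcomm
  have hfin : D.scGen K q t =
      (word D K (A.map fun c => (c.1, (c.2.1 : K) * (-(-((C : K) * t))) ^ c.2.2.1 * 1 ^ c.2.2.2)))⁻¹ *
      ((D.scGen K s 1)⁻¹ * (D.scGen K r (-((C : K) * t)))⁻¹ * D.scGen K s 1 * D.scGen K r (-((C : K) * t))) *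
      (word D K (B.map fun c => (c.1, (c.2.1 : K) * (-(-((C : K) * t))) ^ c.2.2.1 * 1 ^ c.2.2.2)))⁻¹ := by
    rw [hcomm]; group
  rw [hfin]
  have m1 : D.scGen K s (1 : K) ∈ H := hmem _ _ hs hsp hsn hfs
  have m2 : D.scGen K r (-((C : K) * t)) ∈ H := hmem _ _ hr hrp hrn hfr
  exact mul_mem (mul_mem (inv_mem hA) (mul_mem (mul_mem (mul_mem (inv_mem m1) (inv_mem m2)) m1) m2)) (inv_mem hB)

section theta

variable (θ : D.SteinbergCover K →* GL D.Idx K)
  (hθ : ∀ (r : ℕ) (t : K), r < D.nroots → ((θ (D.scGen K r t) : GL D.Idx K) : Matrix D.Idx D.Idx K) = D.x K r t)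

include hθ

/-- The transfer principle. -/
theorem transfer {m0 : ℕ → ℤ} (T : Tab D m0) {i : ℕ} (hi : i < D.rank) {g : D.SteinbergCover K}
    (hg : g ∈ PP D K (D.simple i)) (σ : ℕ → ℕ)
    (hσ1 : ∀ s < D.nroots, σ s < D.nroots)
    (hσ2 : ∀ m, ∃ m', ∀ s < D.nroots, lin D m' (σ s) = lin D m s)
    (hσ3 : ∀ m, lin D m (D.simple i) = 0 → ∀ s < D.nroots, lin D m (σ s) = lin D m s)
    (hG : ∀ s < D.nroots, ∃ a : K, ∀ t, θ g * θ (D.scGen K s t) = θ (D.scGen K (σ s) (a * t)) * θ g)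
    {s : ℕ} (hs : s < D.nroots) {a : K}
    (ha : ∀ t, θ g * θ (D.scGen K s t) = θ (D.scGen K (σ s) (a * t)) * θ g) (t : K) :
    g * D.scGen K s t = D.scGen K (σ s) (a * t) * g := by
  have hw := T.toWf
  have hp := T.simple_lt i hi
  have hco : ∀ r < D.nroots, ∃ i : Fin D.rank, (((D.coroot.getD r #[]).getD i.val 0 : ℤ) : K) ≠ 0 :=
    fun r hr => T.coroot_ne hr
  -- the functional vanishing on p
  set mi : ℕ → ℤ := fun j => 2 * m0 j + if j = i then (- lin D m0 (D.simple i)) else 0 with hmi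
  have hmi' : ∀ r, lin D mi r = 2 * lin D m0 r + (- lin D m0 (D.simple i)) * D.cartan i r :=
    fun r => lin_comb D m0 2 _ hi r
  have hfip : lin D mi (D.simple i) = 0 := by
    rw [hmi', T.cartan_simple i hi]; ring
  have hfipos : ∀ s < D.nroots, 0 < lin D m0 s → s ≠ D.simple i → 0 < lin D mi s := by
    intro s hs h1 h2
    have h3 := T.refl_pos i hi s hs h1 h2
    rw [T.refl_lin hi hs] at h3
    rw [hmi']
    nlinarith
  have hfine : ∀ s < D.nroots, s ≠ D.simple i → s ≠ D.neg (D.simple i) → lin D mi s ≠ 0 := by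
    intro s hs h1 h2 h0
    rcases lt_or_gt_of_ne (T.ne_zero s hs) with h | h
    · have hns := hw.neg_lt s hs
      have := hfipos (D.neg s) hns (by rw [(T.fun_lin m0).neg s hs]; omega)
        (by intro h3; apply h2; rw [← h3, hw.neg_neg s hs])
      rw [(T.fun_lin mi).neg s hs] at this
      omega
    · have := hfipos s hs h h1
      omega
  -- conjugation formula for s ≠ ±p
  have key : ∀ s < D.nroots, s ≠ D.simple i → s ≠ D.neg (D.simple i) → ∀ a : K,
      (∀ t, θ g * θ (D.scGen K s t) = θ (D.scGen K (σ s) (a * t)) * θ g) →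
      ∀ t, g * D.scGen K s t = D.scGen K (σ s) (a * t) * g := by
    intro s hs h1 h2 a ha t
    have hcommon : ∀ m, lin D m (D.simple i) = 0 → 0 < lin D m s →
        g * D.scGen K s t = D.scGen K (σ s) (a * t) * g := by
      intro m hfp hfs
      have e1 : g * D.scGen K s t * g⁻¹ ∈ Uf D K (lin D m) :=
        PP_conj_mem hw (T.fun_lin m) hp hfp hg (scGen_mem_Uf hs hfs t)
      have e2 : D.scGen K (σ s) (a * t) ∈ Uf D K (lin D m) :=
        scGen_mem_Uf (hσ1 s hs) (by rw [hσ3 m hfp s hs]; exact hfs) _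
      have e3 : g * D.scGen K s t * g⁻¹ = D.scGen K (σ s) (a * t) := by
        refine theta_inj' θ hθ hw hco (T.fun_lin m) e1 e2 ?_
        rw [map_mul, map_mul, map_inv, ha t, mul_inv_cancel_right]
      rw [← e3, inv_mul_cancel_right]
    rcases lt_or_gt_of_ne (hfine s hs h1 h2) with h | h
    · refine hcommon (fun j => - mi j) ?_ ?_
      · rw [lin_neg, hfip, neg_zero]
      · rw [lin_neg]; omega
    · exact hcommon mi hfip h
  by_cases h1 : s = D.simple i ∨ s = D.neg (D.simple i)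
  · obtain ⟨m, hfs, hgen⟩ := T.comm_gen i hi s h1
    obtain ⟨m', hmm'⟩ := hσ2 m
    have hmem := mem_of_commGen hw (T.fun_lin m) hp h1 hfs hgen t
    have hconj : ∀ x ∈ Subgroup.closure {x | ∃ (s : ℕ) (u : K), s < D.nroots ∧ s ≠ D.simple i ∧
        s ≠ D.neg (D.simple i) ∧ 0 < lin D m s ∧ x = D.scGen K s u}, g * x * g⁻¹ ∈ Uf D K (lin D m') := by
      intro x hx
      induction hx using Subgroup.closure_induction with
      | one => rw [mul_one, mul_inv_cancel]; exact one_mem _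
      | mem x hx =>
        obtain ⟨s', u, hs', h1', h2', hfs', rfl⟩ := hx
        obtain ⟨a', ha'⟩ := hG s' hs'
        rw [key s' hs' h1' h2' a' ha' u, mul_inv_cancel_right]
        exact scGen_mem_Uf (hσ1 s' hs') (by rw [hmm' s' hs']; exact hfs') _
      | mul x y _ _ ihx ihy =>
        have : g * (x * y) * g⁻¹ = (g * x * g⁻¹) * (g * y * g⁻¹) := by group
        rw [this]; exact mul_mem ihx ihy
      | inv x _ ih =>
        have : g * x⁻¹ * g⁻¹ = (g * x * g⁻¹)⁻¹ := by group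
        rw [this]; exact inv_mem ih
    have e1 := hconj _ hmem
    have e2 : D.scGen K (σ s) (a * t) ∈ Uf D K (lin D m') :=
      scGen_mem_Uf (hσ1 s hs) (by rw [hmm' s hs]; exact hfs) _
    have e3 : g * D.scGen K s t * g⁻¹ = D.scGen K (σ s) (a * t) := by
      refine theta_inj' θ hθ hw hco (T.fun_lin m') e1 e2 ?_
      rw [map_mul, map_mul, map_inv, ha t, mul_inv_cancel_right]
    rw [← e3, inv_mul_cancel_right]
  · push Not at h1
    exact key s hs h1.1 h1.2 a ha t

/-- The matrix of the image of a word. -/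
theorem theta_word (w : List (ℕ × K)) (hw : ∀ p ∈ w, p.1 < D.nroots) :
    ((θ (word D K w) : GL D.Idx K) : Matrix D.Idx D.Idx K) = D.wordMat K w := by
  induction w with
  | nil => rw [word_nil, map_one, Units.val_one]; rfl
  | cons p w ih =>
    rw [word_cons, map_mul, Units.val_mul, hθ p.1 p.2 (hw p List.mem_cons_self),
      ih fun q hq => hw q (List.mem_cons_of_mem _ hq)]
    show _ = (List.map _ (p :: w)).prod
    rw [List.map_cons, List.prod_cons]; rfl

theorem theta_stN (hw : Wf D) {r : ℕ} (hr : r < D.nroots) (t : K) :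
    ((θ (mk D K (D.stN r t)) : GL D.Idx K) : Matrix D.Idx D.Idx K) = D.nMat K r t := by
  show ((θ (mk D K (D.stWord (D.nWord r t))) : GL D.Idx K) : Matrix D.Idx D.Idx K) = D.wordMat K (D.nWord r t)
  rw [mk_stWord, theta_word θ hθ]
  intro p hp
  have hp' : p ∈ [(r, t), (D.neg r, -t⁻¹), (r, t)] := hp
  simp only [List.mem_cons, List.not_mem_nil, or_false] at hp'
  rcases hp' with rfl | rfl | rfl
  · exact hr
  · exact hw.neg_lt r hr
  · exact hr

theorem theta_stH (hw : Wf D) {r : ℕ} (hr : r < D.nroots) (t : K) :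
    ((θ (mk D K (D.stH r t)) : GL D.Idx K) : Matrix D.Idx D.Idx K) = D.hMat K r t := by
  show ((θ (mk D K (D.stWord (D.hWord r t))) : GL D.Idx K) : Matrix D.Idx D.Idx K) = D.wordMat K (D.hWord r t)
  rw [mk_stWord, theta_word θ hθ]
  intro p hp
  have hp' : p ∈ [(r, t), (D.neg r, -t⁻¹), (r, t)] ++ [(r, -1), (D.neg r, -(-1)⁻¹), (r, -1)] := hp
  simp only [List.cons_append, List.nil_append, List.mem_cons, List.not_mem_nil, or_false] at hp'
  rcases hp' with rfl | rfl | rfl | rfl | rfl | rfl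
  · exact hr
  · exact hw.neg_lt r hr
  · exact hr
  · exact hr
  · exact hw.neg_lt r hr
  · exact hr

end theta

end Cfsg.Agent.H133.ScConj
end

-- part: H133/ScPres
section
/-!
# The presented Steinberg group: conjugation formulas

For `D` one of the seven tabulated data and a homomorphism `θ` from the presented group to `GL` with
`θ (x̄_r(t)) = x_r(t)`: conjugation by `n̄_p(1)` and `h̄_p(c)` (`p` fundamental) on the generators, injectivity of `θ`
on the positive and negative unipotent subgroups.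
-/

set_option autoImplicit false

namespace Cfsg.Agent.H133.ScPres

open Cfsg.Lie Cfsg.Agent.H133.ScRels Cfsg.Agent.ChevalleyStructure.St.Functional
  Cfsg.Agent.H133.ScInj Cfsg.Agent.H133.ScConj
open Cfsg.Agent.ChevalleyStructure.St.Conj (CommGen lin lin_def lin_comb lin_neg Tab)

universe u

variable {K : Type u} [Field K] {D : ChevalleyDatum}

theorem stN_mem_PP (r : ℕ) (t : K) : mk D K (D.stN r t) ∈ PP D K r := by
  rw [mk_stN]
  exact mul_mem (mul_mem (scGen_mem_PP r t) (scGen_neg_mem_PP r _)) (scGen_mem_PP r t)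

theorem stH_mem_PP (r : ℕ) (t : K) : mk D K (D.stH r t) ∈ PP D K r := by
  rw [mk_stH]; exact mul_mem (stN_mem_PP r t) (stN_mem_PP r (-1))

section theta

variable (hD : D ∈ [chevG2, chevB2, chevD4, chevF4, chevE6, chevE7, chevE8]) {m0 : ℕ → ℤ} (T : Tab D m0)
  (θ : D.SteinbergCover K →* GL D.Idx K)
  (hθ : ∀ (r : ℕ) (t : K), r < D.nroots → ((θ (D.scGen K r t) : GL D.Idx K) : Matrix D.Idx D.Idx K) = D.x K r t)

include hD T hθ

/-- `n̄_p x̄_s(t) n̄_p⁻¹ = x̄_{w_p(s)}(η t)` in the presented group, for all roots `s`. -/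
theorem n_conj_tab (i s : ℕ) (hi : i < D.rank) (hs : s < D.nroots) :
    ∃ η : ℤ, (η = 1 ∨ η = -1) ∧ ∀ t : K,
      mk D K (D.stN (D.simple i) 1) * D.scGen K s t =
        D.scGen K (D.reflectRoot i s) ((η : K) * t) * mk D K (D.stN (D.simple i) 1) := by
  have hG : ∀ s < D.nroots, ∃ η : ℤ, (η = 1 ∨ η = -1) ∧ ∀ t : K,
      θ (mk D K (D.stN (D.simple i) 1)) * θ (D.scGen K s t) =
        θ (D.scGen K (D.reflectRoot i s) ((η : K) * t)) * θ (mk D K (D.stN (D.simple i) 1)) := by
    intro s hs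
    obtain ⟨η, hη, h⟩ := Cfsg.Agent.S1031.result (F := K) D hD i s hi hs
    refine ⟨η, hη, fun t => Units.ext ?_⟩
    rw [Units.val_mul, Units.val_mul, theta_stN θ hθ T.toWf (T.simple_lt i hi), hθ s t hs,
      hθ _ _ (T.refl_lt i hi s hs)]
    exact h t
  obtain ⟨η, hη, h⟩ := hG s hs
  refine ⟨η, hη, fun t => ?_⟩
  refine transfer θ hθ T hi (stN_mem_PP _ _) (D.reflectRoot i) (T.refl_lt i hi) ?_ ?_ ?_ hs h t
  · intro m
    refine ⟨fun j => 1 * m j + if j = i then (- lin D m (D.simple i)) else 0, ?_⟩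
    intro s hs
    rw [lin_comb D m 1 _ hi, T.refl_lin hi hs, T.refl_cartan i hi s hs i hi, T.cartan_simple i hi]
    ring
  · intro m hfp s hs
    rw [T.refl_lin hi hs, hfp]; ring
  · intro s hs
    obtain ⟨η, _, h⟩ := hG s hs
    exact ⟨(η : K), h⟩

/-- `h̄_p(c) x̄_s(t) h̄_p(c)⁻¹ = x̄_s(c^{A_{p,s}} t)` in the presented group, for all roots `s`. -/
theorem h_conj_tab (i s : ℕ) (hi : i < D.rank) (hs : s < D.nroots) (c : K) (hc : c ≠ 0) (t : K) :
    mk D K (D.stH (D.simple i) c) * D.scGen K s t =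
      D.scGen K s (c ^ (D.cartan i s) * t) * mk D K (D.stH (D.simple i) c) := by
  have hG : ∀ s < D.nroots, ∀ t : K,
      θ (mk D K (D.stH (D.simple i) c)) * θ (D.scGen K s t) =
        θ (D.scGen K (id s) (c ^ (D.cartan i s) * t)) * θ (mk D K (D.stH (D.simple i) c)) := by
    intro s hs t
    refine Units.ext ?_
    rw [Units.val_mul, Units.val_mul, theta_stH θ hθ T.toWf (T.simple_lt i hi), hθ s t hs, hθ (id s) _ hs]
    exact Cfsg.Agent.S1032.result (F := K) D hD i s hi hs c hc t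
  exact transfer θ hθ T hi (stH_mem_PP _ _) id (fun s hs => hs) (fun m => ⟨m, fun s _ => rfl⟩)
    (fun m _ s _ => rfl) (fun s hs => ⟨_, hG s hs⟩) hs (hG s hs) t

omit hD

/-- `θ` is injective on `Ū = ⟨x̄_r(t) : r > 0⟩`. -/
theorem theta_inj_pos_tab {g : D.SteinbergCover K}
    (hg : g ∈ Subgroup.closure {x | ∃ (r : ℕ) (t : K), D.IsPosRoot r ∧ x = D.scGen K r t}) (h1 : θ g = 1) :
    g = 1 := by
  refine theta_inj θ hθ T.toWf (fun r hr => T.coroot_ne hr) (T.fun_lin m0) ?_ h1
  refine (Subgroup.closure_mono ?_) hg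
  rintro x ⟨r, t, hr, rfl⟩
  exact ⟨r, t, hr.1, (T.pos_iff r hr.1).1 hr, rfl⟩

/-- `θ` is injective on `V̄ = ⟨x̄_r(t) : r < 0⟩`. -/
theorem theta_inj_neg_tab {g : D.SteinbergCover K}
    (hg : g ∈ Subgroup.closure {x | ∃ (r : ℕ) (t : K), r < D.nroots ∧ ¬ D.IsPosRoot r ∧ x = D.scGen K r t})
    (h1 : θ g = 1) : g = 1 := by
  refine theta_inj θ hθ T.toWf (fun r hr => T.coroot_ne hr) (T.fun_lin fun j => - m0 j) ?_ h1
  refine (Subgroup.closure_mono ?_) hg
  rintro x ⟨r, t, hr, hneg, rfl⟩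
  refine ⟨r, t, hr, ?_, rfl⟩
  rw [T.pos_iff r hr] at hneg
  have := T.ne_zero r hr
  rw [lin_neg]
  omega

end theta

section main

variable (hD : D ∈ [chevG2, chevB2, chevD4, chevF4, chevE6, chevE7, chevE8])
  (θ : D.SteinbergCover K →* GL D.Idx K)
  (hθ : ∀ (r : ℕ) (t : K), r < D.nroots → ((θ (D.scGen K r t) : GL D.Idx K) : Matrix D.Idx D.Idx K) = D.x K r t)

include hD hθ

/-- `n̄_p x̄_s(t) n̄_p⁻¹ = x̄_{w_p(s)}(η t)` in the presented group, for all roots `s`. -/
theorem n_conj (i s : ℕ) (hi : i < D.rank) (hs : s < D.nroots) :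
    ∃ η : ℤ, (η = 1 ∨ η = -1) ∧ ∀ t : K,
      PresentedGroup.mk (D.steinbergRelsAB K) (D.stN (D.simple i) 1) * D.scGen K s t =
        D.scGen K (D.reflectRoot i s) ((η : K) * t) *
          PresentedGroup.mk (D.steinbergRelsAB K) (D.stN (D.simple i) 1) := by
  obtain ⟨m0, T⟩ := Cfsg.Agent.ChevalleyStructure.St.TabAll.exists_tab hD
  exact n_conj_tab hD T θ hθ i s hi hs

/-- `h̄_p(c) x̄_s(t) h̄_p(c)⁻¹ = x̄_s(c^{A_{p,s}} t)` in the presented group, for all roots `s`. -/
theorem h_conj (i s : ℕ) (hi : i < D.rank) (hs : s < D.nroots) (c : K) (hc : c ≠ 0) (t : K) :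
    PresentedGroup.mk (D.steinbergRelsAB K) (D.stH (D.simple i) c) * D.scGen K s t =
      D.scGen K s (c ^ (D.cartan i s) * t) * PresentedGroup.mk (D.steinbergRelsAB K) (D.stH (D.simple i) c) := by
  obtain ⟨m0, T⟩ := Cfsg.Agent.ChevalleyStructure.St.TabAll.exists_tab hD
  exact h_conj_tab hD T θ hθ i s hi hs c hc t

/-- `θ` is injective on `Ū`. -/
theorem theta_inj_pos {g : D.SteinbergCover K}
    (hg : g ∈ Subgroup.closure {x | ∃ (r : ℕ) (t : K), D.IsPosRoot r ∧ x = D.scGen K r t}) (h1 : θ g = 1) :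
    g = 1 := by
  obtain ⟨m0, T⟩ := Cfsg.Agent.ChevalleyStructure.St.TabAll.exists_tab hD
  exact theta_inj_pos_tab T θ hθ hg h1

/-- `θ` is injective on `V̄`. -/
theorem theta_inj_neg {g : D.SteinbergCover K}
    (hg : g ∈ Subgroup.closure {x | ∃ (r : ℕ) (t : K), r < D.nroots ∧ ¬ D.IsPosRoot r ∧ x = D.scGen K r t})
    (h1 : θ g = 1) : g = 1 := by
  obtain ⟨m0, T⟩ := Cfsg.Agent.ChevalleyStructure.St.TabAll.exists_tab hD
  exact theta_inj_neg_tab T θ hθ hg h1

end main

end Cfsg.Agent.H133.ScPres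
end

-- part: H133/ScKer
section
/-!
# The kernel of `x̄_r(t) ↦ x_r(t)` lies in `H̄`

The abstract Bruhat decomposition of `SteinbergBruhat` applied to the presented group of Steinberg.
-/

set_option autoImplicit false

namespace Cfsg.Agent.H133.ScKer

open Cfsg.Lie Cfsg.Agent.H133.ScRels Cfsg.Agent.ChevalleyStructure.St.Functional
  Cfsg.Agent.H133.ScConj Cfsg.Agent.ChevalleyStructure.RootCombGood
  Cfsg.Agent.ChevalleyStructure.SteinbergBruhat Cfsg.Agent.ChevalleyStructure.TriAbstract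
  Cfsg.Agent.ChevalleyStructure.Triangular Cfsg.Agent.ChevalleyStructure
open Cfsg.Agent.ChevalleyStructure.St.Conj (CommGen lin lin_def lin_comb lin_neg Tab)

universe u

variable {K : Type u} [Field K] {D : ChevalleyDatum}

/-- The root subgroup `X̄_r` of the presented group. -/
def Xb (D : ChevalleyDatum) (K : Type u) [Field K] (r : ℕ) : Subgroup (D.SteinbergCover K) where
  carrier := Set.range (D.scGen K r)
  mul_mem' := by
    rintro _ _ ⟨t, rfl⟩ ⟨u, rfl⟩
    exact ⟨t + u, (scGen_add' r t u).symm⟩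
  one_mem' := ⟨0, scGen_zero r⟩
  inv_mem' := by
    rintro _ ⟨t, rfl⟩
    exact ⟨-t, (scGen_inv r t).symm⟩

theorem mem_Xb {r : ℕ} {x : D.SteinbergCover K} : x ∈ Xb D K r ↔ ∃ t, D.scGen K r t = x := Iff.rfl

theorem scGen_mem_Xb (r : ℕ) (t : K) : D.scGen K r t ∈ Xb D K r := ⟨t, rfl⟩

/-- The group `H̄` generated by the `h̄_p(t)`, `p` fundamental. -/
def Hb (D : ChevalleyDatum) (K : Type u) [Field K] : Subgroup (D.SteinbergCover K) :=
  Subgroup.closure {h | ∃ (i : ℕ) (t : K), i < D.rank ∧ t ≠ 0 ∧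
    h = PresentedGroup.mk (D.steinbergRelsAB K) (D.stH (D.simple i) t)}

theorem hb_mem {i : ℕ} (hi : i < D.rank) {t : K} (ht : t ≠ 0) : mk D K (D.stH (D.simple i) t) ∈ Hb D K :=
  Subgroup.subset_closure ⟨i, t, hi, ht, rfl⟩

/-- `n̄_r(t)⁻¹ = n̄_r(-t)` -/
theorem stN_inv (r : ℕ) (t : K) : (mk D K (D.stN r t))⁻¹ = mk D K (D.stN r (-t)) := by
  rw [mk_stN, mk_stN, mul_inv_rev, mul_inv_rev, scGen_inv, scGen_inv]
  have : -(-t⁻¹) = -(-t)⁻¹ := by rw [inv_neg]
  rw [this, mul_assoc]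

theorem stN_eq_mul (r : ℕ) (t : K) : mk D K (D.stN r t) = mk D K (D.stH r t) * mk D K (D.stN r 1) := by
  rw [mk_stH, mul_assoc]
  have h := stN_inv (D := D) (K := K) r 1
  rw [← h, inv_mul_cancel, mul_one]

/-- The root data in the presented group. -/
def rd (G : Good D) (K : Type u) [Field K] : RData (D.SteinbergCover K) (Fin D.nroots) (Fin D.rank) where
  pos r := D.IsPosRoot r
  neg r := ⟨D.neg r, RootWord.neg_lt G r.2⟩
  sim i := ⟨D.simple i, G.simple_lt i.2⟩
  refl i r := ⟨D.reflectRoot i r, G.reflect_lt i.2 r.2⟩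
  X r := Xb D K r
  H := Hb D K
  n i := mk D K (D.stN (D.simple i) 1)

section

variable (hD : D ∈ [chevG2, chevB2, chevD4, chevF4, chevE6, chevE7, chevE8])
  (θ : D.SteinbergCover K →* GL D.Idx K)
  (hθ : ∀ (r : ℕ) (t : K), r < D.nroots → ((θ (D.scGen K r t) : GL D.Idx K) : Matrix D.Idx D.Idx K) = D.x K r t)

include hD hθ

/-- conjugation by a generator of `H̄` -/
theorem h_conj' {i s : ℕ} (hi : i < D.rank) (hs : s < D.nroots) {c : K} (hc : c ≠ 0) (t : K) :
    mk D K (D.stH (D.simple i) c) * D.scGen K s t * (mk D K (D.stH (D.simple i) c))⁻¹ =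
      D.scGen K s (c ^ (D.cartan i s) * t) := by
  rw [ScPres.h_conj hD θ hθ i s hi hs c hc t, mul_inv_cancel_right]

theorem h_conj_inv {i s : ℕ} (hi : i < D.rank) (hs : s < D.nroots) {c : K} (hc : c ≠ 0) (t : K) :
    (mk D K (D.stH (D.simple i) c))⁻¹ * D.scGen K s t * mk D K (D.stH (D.simple i) c) =
      D.scGen K s (c ^ (-(D.cartan i s)) * t) := by
  have h := ScPres.h_conj hD θ hθ i s hi hs c hc (c ^ (-(D.cartan i s)) * t)
  rw [← mul_assoc, ← zpow_add₀ hc, add_neg_cancel, zpow_zero, one_mul] at h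
  rw [mul_assoc, ← h, inv_mul_cancel_left]

theorem conjH {h : D.SteinbergCover K} (hh : h ∈ Hb D K) {s : ℕ} (hs : s < D.nroots) {x : D.SteinbergCover K}
    (hx : x ∈ Xb D K s) : h * x * h⁻¹ ∈ Xb D K s := by
  unfold Hb at hh
  induction hh using Subgroup.closure_induction'' generalizing x with
  | mem y hy =>
    obtain ⟨i, t, hi, ht, rfl⟩ := hy
    obtain ⟨u, rfl⟩ := hx
    exact ⟨_, (h_conj' hD θ hθ hi hs ht u).symm⟩
  | inv_mem y hy =>
    obtain ⟨i, t, hi, ht, rfl⟩ := hy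
    obtain ⟨u, rfl⟩ := hx
    rw [inv_inv]
    exact ⟨_, (h_conj_inv hD θ hθ hi hs ht u).symm⟩
  | one => simpa using hx
  | mul a b _ _ ha hb =>
    have := ha (hb hx)
    have e : a * b * x * (a * b)⁻¹ = a * (b * x * b⁻¹) * a⁻¹ := by group
    rw [e]; exact this

theorem conjn {i s : ℕ} (hi : i < D.rank) (hs : s < D.nroots) {x : D.SteinbergCover K}
    (hx : x ∈ Xb D K s) :
    mk D K (D.stN (D.simple i) 1) * x * (mk D K (D.stN (D.simple i) 1))⁻¹ ∈ Xb D K (D.reflectRoot i s) := by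
  obtain ⟨t, rfl⟩ := hx
  obtain ⟨η, _, h⟩ := ScPres.n_conj hD θ hθ i s hi hs
  refine ⟨(η : K) * t, ?_⟩
  rw [h t, mul_inv_cancel_right]

/-- `n̄_q h̄_p(c) n̄_q⁻¹ ∈ H̄` -/
theorem conjnH_gen {i j : ℕ} (hi : i < D.rank) (hj : j < D.rank) {c : K} (hc : c ≠ 0) :
    mk D K (D.stN (D.simple j) 1) * mk D K (D.stH (D.simple i) c) * (mk D K (D.stN (D.simple j) 1))⁻¹ ∈ Hb D K := by
  have G := RootComb.good_of_mem hD
  set h := mk D K (D.stH (D.simple i) c) with hh
  set n := mk D K (D.stN (D.simple j) 1) with hn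
  set d : K := c ^ (D.cartan i (D.simple j)) with hd
  have hd0 : d ≠ 0 := zpow_ne_zero _ hc
  have hsj := G.simple_lt hj
  -- h n h⁻¹ = n̄_q(d)
  have h1 : h * n * h⁻¹ = mk D K (D.stN (D.simple j) d) := by
    rw [hn, mk_stN, mk_stN]
    have e : h * (D.scGen K (D.simple j) 1 * D.scGen K (D.neg (D.simple j)) (-1⁻¹) * D.scGen K (D.simple j) 1) * h⁻¹
        = (h * D.scGen K (D.simple j) 1 * h⁻¹) * (h * D.scGen K (D.neg (D.simple j)) (-1⁻¹) * h⁻¹) *
          (h * D.scGen K (D.simple j) 1 * h⁻¹) := by group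
    rw [e, h_conj' hD θ hθ hi hsj hc, h_conj' hD θ hθ hi (RootWord.neg_lt G hsj) hc, G.cartan_neg hi hsj, ← hd,
      mul_one, zpow_neg, ← hd, inv_one, mul_neg, mul_one]
  -- n̄_q(d) = h̄_q(d) n
  rw [stN_eq_mul, ← hn] at h1
  have h2 : n * h * n⁻¹ = (mk D K (D.stH (D.simple j) d))⁻¹ * h := by
    have h3 : h * n = mk D K (D.stH (D.simple j) d) * n * h := by rw [← h1]; group
    have h4 : n * h = (mk D K (D.stH (D.simple j) d))⁻¹ * (h * n) := by rw [h3]; group
    rw [h4]; group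
  rw [h2]
  exact mul_mem (inv_mem (hb_mem hj hd0)) (hb_mem hi hc)

theorem conjnH {j : ℕ} (hj : j < D.rank) {h : D.SteinbergCover K} (hh : h ∈ Hb D K) :
    mk D K (D.stN (D.simple j) 1) * h * (mk D K (D.stN (D.simple j) 1))⁻¹ ∈ Hb D K := by
  have hle : Hb D K ≤ (Hb D K).comap (MulAut.conj (mk D K (D.stN (D.simple j) 1))).toMonoidHom := by
    conv_lhs => unfold Hb
    rw [Subgroup.closure_le]
    rintro _ ⟨i, t, hi, ht, rfl⟩
    exact conjnH_gen hD θ hθ hi hj ht
  exact hle hh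

/-- The matrices of `Ū` are unitriangular, those of `H̄` are diagonal. -/
theorem theta_H {h : D.SteinbergCover K} (hh : h ∈ Hb D K) : θ h ∈ diagSub D.Idx K := by
  have G := RootComb.good_of_mem hD
  obtain ⟨m0, T⟩ := St.TabAll.exists_tab hD
  have hle : Hb D K ≤ (diagSub D.Idx K).comap θ := by
    unfold Hb
    rw [Subgroup.closure_le]
    rintro _ ⟨i, t, hi, ht, rfl⟩
    have h1 := Cfsg.Agent.S1033.result (F := K) D hD i hi t ht
    rw [← theta_stH θ hθ T.toWf (G.simple_lt hi) t] at h1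
    exact mem_diagSub'.2 ⟨_, h1⟩
  exact hle hh

theorem theta_U {G : Good D} {u : D.SteinbergCover K} (hu : u ∈ (rd G K).U) : θ u ∈ loUni D K := by
  have hle : (rd G K).U ≤ (loUni D K).comap θ := by
    refine iSup₂_le fun r hr => ?_
    rintro _ ⟨t, rfl⟩
    exact mem_loUni_of_pos hD hr (hθ r t r.2)
  exact hle hu

theorem theta_B {G : Good D} {u : D.SteinbergCover K} (hu : u ∈ (rd G K).B) : θ u ∈ loTri D K := by
  have hle : (rd G K).B ≤ (loTri D K).comap θ := by
    refine sup_le ?_ ?_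
    · intro u hu
      exact uni_le_tri _ _ (theta_U hD θ hθ hu)
    · intro h hh
      exact diagSub_le_tri _ (theta_H hD θ hθ hh)
  exact hle hu

theorem not_le {G : Good D} (r : Fin D.nroots) (hr : ¬ D.IsPosRoot r) :
    ¬ (Xb D K r).map θ ≤ ((rd G K).B).map θ := by
  intro hle
  obtain ⟨m0, T⟩ := St.TabAll.exists_tab hD
  obtain ⟨i, hi⟩ := T.coroot_ne (K := K) r.2
  have h1 : θ (D.scGen K r 1) ∈ ((rd G K).B).map θ := hle ⟨_, scGen_mem_Xb r 1, rfl⟩
  obtain ⟨b, hb, hbe⟩ := h1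
  have h2 : θ (D.scGen K r 1) ∈ loTri D K := by rw [← hbe]; exact theta_B hD θ hθ hb
  rw [mem_loTri, hθ r 1 r.2] at h2
  have hn : D.IsNegRoot r := (RootWord.isNegRoot_iff_not G r.2).2 hr
  have hnlt : (r : ℕ) < D.nroots / 2 := G.isNegRoot_iff.1 hn
  have hneg : D.neg r = D.nroots - 1 - r := G.neg_eq r.2
  have hev := G.nroots_eq
  have h3 := h2 (Sum.inl i) (Sum.inr ⟨D.neg r, RootWord.neg_lt G r.2⟩) (by
    rw [key_inl, key_inr]
    have h4 : ¬ ((⟨D.neg r, RootWord.neg_lt G r.2⟩ : Fin D.nroots).val < D.nroots / 2) := by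
      show ¬ (D.neg r < D.nroots / 2)
      omega
    rw [if_neg h4]
    show D.nroots / 2 + i.val < D.neg r + D.rank
    have := i.2
    omega)
  rw [x_inl_neg r.2 1 i ⟨D.neg r, RootWord.neg_lt G r.2⟩ rfl (by
    show D.neg r ≠ r
    exact RootWord.neg_ne G r.2), mul_one] at h3
  exact hi h3

theorem axioms_rd (G : Good D) : (rd G K).Axioms where
  refl_refl i r := Fin.ext (G.reflect_reflect i.2 r.2)
  refl_sim i := Fin.ext (G.reflect_simple i.2)
  refl_pos i r hr hri := G.reflect_pos i.2 hr (fun h => hri (Fin.ext h))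
  refl_neg i r := Fin.ext (G.reflect_neg i.2 r.2)
  pos_sim i := G.simple_pos i.2
  pos_neg r := by
    show D.IsPosRoot (D.neg r) ↔ ¬ D.IsPosRoot r
    rw [RootWord.isPosRoot_neg G r.2, RootWord.isNegRoot_iff_not G r.2]
  conjH h hh r x hx := conjH hD θ hθ hh r.2 hx
  conjn i r x hx := conjn hD θ hθ i.2 r.2 hx
  conjnH i h hh := conjnH hD θ hθ i.2 hh
  nn i := by
    show mk D K (D.stN (D.simple i) 1) * mk D K (D.stN (D.simple i) 1) ∈ Hb D K
    have h1 := stN_inv (D := D) (K := K) (D.simple i) (-1)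
    rw [neg_neg] at h1
    have h2 : mk D K (D.stN (D.simple i) 1) * mk D K (D.stN (D.simple i) 1) =
        (mk D K (D.stH (D.simple i) (-1)))⁻¹ := by
      rw [← h1, mk_stH]; group
    rw [h2]
    exact inv_mem (hb_mem i.2 (neg_ne_zero.2 one_ne_zero))
  nmem i := by
    show mk D K (D.stN (D.simple i) 1) ∈ Xb D K (D.simple i) ⊔ Xb D K (D.neg (D.simple i)) ⊔ Hb D K
    rw [mk_stN]
    have h1 : Xb D K (D.simple i) ≤ Xb D K (D.simple i) ⊔ Xb D K (D.neg (D.simple i)) ⊔ Hb D K :=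
      le_sup_left.trans le_sup_left
    have h2 : Xb D K (D.neg (D.simple i)) ≤ Xb D K (D.simple i) ⊔ Xb D K (D.neg (D.simple i)) ⊔ Hb D K :=
      le_sup_right.trans le_sup_left
    exact mul_mem (mul_mem (h1 (scGen_mem_Xb _ _)) (h2 (scGen_mem_Xb _ _))) (h1 (scGen_mem_Xb _ _))
  Xneg i x hx := by
    obtain ⟨t, rfl⟩ := hx
    by_cases ht : t = 0
    · left
      rw [ht]
      exact scGen_zero _
    right
    have ht' : t⁻¹ ≠ 0 := inv_ne_zero ht
    -- x̄_{-p}(t) = x̄_p(t⁻¹) n̄_p(-t⁻¹) x̄_p(t⁻¹)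
    have e1 : D.scGen K (D.neg (D.simple i)) t =
        D.scGen K (D.simple i) t⁻¹ * mk D K (D.stN (D.simple i) (-t⁻¹)) * D.scGen K (D.simple i) t⁻¹ := by
      rw [mk_stN]
      have e2 : -(-t⁻¹)⁻¹ = t := by rw [inv_neg, neg_neg, inv_inv]
      rw [e2]
      have e3 : D.scGen K (D.simple i) (-t⁻¹) = (D.scGen K (D.simple i) t⁻¹)⁻¹ := (scGen_inv _ _).symm
      rw [e3]; group
    refine ⟨D.scGen K (D.simple i) t⁻¹, scGen_mem_Xb _ _,
      (mk D K (D.stN (D.simple i) 1))⁻¹ * mk D K (D.stH (D.simple i) (-t⁻¹)) * mk D K (D.stN (D.simple i) 1), ?_,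
      D.scGen K (D.simple i) t⁻¹, scGen_mem_Xb _ _, ?_⟩
    · have hk : mk D K (D.stH (D.simple i) (-t⁻¹)) ∈ Hb D K := hb_mem i.2 (neg_ne_zero.2 ht')
      -- (n⁻¹ h n) ∈ H from n h n⁻¹ ∈ H and n² ∈ H
      have hn2 : mk D K (D.stN (D.simple i) 1) * mk D K (D.stN (D.simple i) 1) ∈ Hb D K := by
        have h1 := stN_inv (D := D) (K := K) (D.simple i) (-1)
        rw [neg_neg] at h1
        have h2 : mk D K (D.stN (D.simple i) 1) * mk D K (D.stN (D.simple i) 1) =
            (mk D K (D.stH (D.simple i) (-1)))⁻¹ := by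
          rw [← h1, mk_stH]; group
        rw [h2]
        exact inv_mem (hb_mem i.2 (neg_ne_zero.2 one_ne_zero))
      have h3 := conjnH hD θ hθ i.2 hk
      have h4 := mul_mem (mul_mem (inv_mem hn2) h3) hn2
      have e : (mk D K (D.stN (D.simple i) 1) * mk D K (D.stN (D.simple i) 1))⁻¹ *
          (mk D K (D.stN (D.simple i) 1) * mk D K (D.stH (D.simple i) (-t⁻¹)) * (mk D K (D.stN (D.simple i) 1))⁻¹) *
          (mk D K (D.stN (D.simple i) 1) * mk D K (D.stN (D.simple i) 1)) =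
          (mk D K (D.stN (D.simple i) 1))⁻¹ * mk D K (D.stH (D.simple i) (-t⁻¹)) * mk D K (D.stN (D.simple i) 1) := by
        group
      rw [e] at h4
      exact h4
    · show D.scGen K (D.neg (D.simple i)) t = D.scGen K (D.simple i) t⁻¹ *
        (mk D K (D.stN (D.simple i) 1) * ((mk D K (D.stN (D.simple i) 1))⁻¹ *
          mk D K (D.stH (D.simple i) (-t⁻¹)) * mk D K (D.stN (D.simple i) 1))) * D.scGen K (D.simple i) t⁻¹
      rw [e1, stN_eq_mul]; group
  Unorm i x hx u hu := by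
    obtain ⟨m0, T⟩ := St.TabAll.exists_tab hD
    obtain ⟨t, rfl⟩ := hx
    have hle : (rd G K).Ui i ≤ ((rd G K).Ui i).comap
        (MulAut.conj (D.scGen K (D.simple i) t)).toMonoidHom := by
      refine iSup₂_le fun s hs => ?_
      rintro _ ⟨u, rfl⟩
      show D.scGen K (D.simple i) t * D.scGen K s u * (D.scGen K (D.simple i) t)⁻¹ ∈ (rd G K).Ui i
      have hsi : (s : ℕ) ≠ D.simple i := fun h => hs.2 (Fin.ext h)
      have hsn : (s : ℕ) ≠ D.neg (D.simple i) := by
        intro h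
        have h1 : D.IsPosRoot s := hs.1
        rw [h, RootWord.isPosRoot_neg G (G.simple_lt i.2), RootWord.isNegRoot_iff_not G (G.simple_lt i.2)] at h1
        exact h1 (G.simple_pos i.2)
      have h1 := scGen_conj (K := K) (G.simple_lt i.2) s.2 hsi hsn (-t) u
      have e1 : D.scGen K (D.simple i) (-t) = (D.scGen K (D.simple i) t)⁻¹ := (scGen_inv _ _).symm
      rw [e1, inv_inv] at h1
      rw [h1]
      have hmem : ∀ c : Fin D.nroots, D.IsPosRoot c → (c : ℕ) ≠ D.simple i → ∀ v : K,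
          D.scGen K c v ∈ (rd G K).Ui i := by
        intro c hc hci v
        have : (rd G K).X c ≤ (rd G K).Ui i :=
          le_iSup₂_of_le c ⟨hc, fun h => hci (congrArg Fin.val h)⟩ le_rfl
        exact this ⟨v, rfl⟩
      refine mul_mem (hmem s hs.1 hsi u) (word_mem _ ?_)
      rintro ⟨c, v⟩ hcv
      change (c, v) ∈ (D.commTerms (D.simple i) s).map fun c => (c.1, (c.2.1 : K) * (-(-t)) ^ c.2.2.1 * u ^ c.2.2.2)
        at hcv
      obtain ⟨c', hc', e'⟩ := List.mem_map.1 hcv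
      obtain ⟨h2, h3, h4, h5⟩ := commTerms_spec T.toWf (G.simple_lt i.2) s.2 hc'
      have h6 := h5 _ (T.fun_lin m0)
      have h7 := (T.pos_iff _ (G.simple_lt i.2)).1 (G.simple_pos i.2)
      have h8 := (T.pos_iff _ s.2).1 hs.1
      have h9 : (1 : ℤ) * lin D m0 (D.simple i) ≤ c'.2.2.1 * lin D m0 (D.simple i) :=
        mul_le_mul_of_nonneg_right (by exact_mod_cast h3) h7.le
      have h10 : (1 : ℤ) * lin D m0 s ≤ c'.2.2.2 * lin D m0 s :=
        mul_le_mul_of_nonneg_right (by exact_mod_cast h4) h8.le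
      have e'' : c'.1 = c := congrArg Prod.fst e'
      show D.scGen K c v ∈ (rd G K).Ui i
      rw [← e'']
      refine hmem ⟨c'.1, h2⟩ ?_ ?_ v
      · show D.IsPosRoot c'.1
        rw [T.pos_iff _ h2, h6]
        omega
      · show c'.1 ≠ D.simple i
        intro h
        rw [h] at h6
        omega
    exact hle hu
  notle r hr hle := not_le hD θ hθ (G := G) r hr (Subgroup.map_mono hle)

/-- `B̄` and the `n̄_p` generate. -/
theorem generates (G : Good D) : (rd G K).B ⊔ Subgroup.closure (Set.range (rd G K).n) = ⊤ := by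
  have A := axioms_rd hD θ hθ G
  rw [eq_top_iff]
  intro g _
  refine mem_of_gens _ ?_ g
  have hn : ∀ i : ℕ, i < D.rank → mk D K (D.stN (D.simple i) 1) ∈
      (rd G K).B ⊔ Subgroup.closure (Set.range (rd G K).n) := by
    intro i hi
    exact (le_sup_right : _ ≤ (rd G K).B ⊔ Subgroup.closure (Set.range (rd G K).n))
      (Subgroup.subset_closure ⟨⟨i, hi⟩, rfl⟩)
  refine RootWord.root_induction G (P := fun r => ∀ t : K, D.scGen K r t ∈
    (rd G K).B ⊔ Subgroup.closure (Set.range (rd G K).n)) ?_ ?_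
  · intro i hi t
    have h1 : (rd G K).X ⟨D.simple i, G.simple_lt hi⟩ ≤ (rd G K).B :=
      RData.Axioms.X_le_B A (G.simple_pos hi)
    exact (le_sup_left : _ ≤ (rd G K).B ⊔ Subgroup.closure (Set.range (rd G K).n)) (h1 ⟨t, rfl⟩)
  · intro i hi r hr ih t
    have h1 := conjn hD θ hθ hi (G.reflect_lt hi hr) (scGen_mem_Xb (D := D) (D.reflectRoot i r) t)
    rw [G.reflect_reflect hi hr] at h1
    obtain ⟨u, hu⟩ := h1
    have h2 : D.scGen K (D.reflectRoot i r) t =
        (mk D K (D.stN (D.simple i) 1))⁻¹ * D.scGen K r u * mk D K (D.stN (D.simple i) 1) := by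
      rw [hu]; group
    rw [h2]
    exact mul_mem (mul_mem (inv_mem (hn i hi)) (ih u)) (hn i hi)

/-- The kernel of `θ` lies in `H̄`. -/
theorem ker_le : θ.ker ≤ Hb D K := by
  have G := RootComb.good_of_mem hD
  have A := axioms_rd hD θ hθ G
  have h1 : θ.ker ≤ (rd G K).B := A.ker_le_B (generates hD θ hθ G) θ fun r hr => not_le hD θ hθ r hr
  intro g hg
  obtain ⟨u, hu, h, hh, rfl⟩ := A.mem_B_iff (h1 hg)
  rw [MonoidHom.mem_ker, map_mul] at hg
  have hu1 := theta_U hD θ hθ hu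
  have hh1 := theta_H hD θ hθ (h := h) hh
  have hu2 : θ u ∈ diagSub D.Idx K := by
    have : θ u = (θ h)⁻¹ := eq_inv_of_mul_eq_one_left hg
    rw [this]; exact inv_mem hh1
  have hu3 : θ u = 1 := eq_one_of_uni_of_diag (key_injective' D) hu1 hu2
  have hu4 : u ∈ Subgroup.closure {x | ∃ (r : ℕ) (t : K), D.IsPosRoot r ∧ x = D.scGen K r t} := by
    have : (rd G K).U ≤ Subgroup.closure {x | ∃ (r : ℕ) (t : K), D.IsPosRoot r ∧ x = D.scGen K r t} := by
      refine iSup₂_le fun r hr => ?_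
      rintro _ ⟨t, rfl⟩
      exact Subgroup.subset_closure ⟨r, t, hr, rfl⟩
    exact this hu
  rw [ScPres.theta_inj_pos hD θ hθ hu4 hu3, one_mul]
  exact hh

end

end Cfsg.Agent.H133.ScKer
end

-- part: H133/ScTheta
section
/-!
# The homomorphism from the group presented by (R1), (R2) onto the Chevalley group

Port of `ChevalleyStructure.StTheta` to `D.SteinbergCover K`.
-/

set_option autoImplicit false

namespace Cfsg.Agent.H133.ScTheta

open Cfsg.Lie Cfsg.Agent.ChevalleyStructure.Elts Cfsg.Agent.ChevalleyStructure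

universe u

variable {K : Type u} [Field K] {D : ChevalleyDatum} (hD : InList D)

/-- The map on generators. -/
def gen : Fin D.nroots × K → GL D.Idx K := fun p => xG hD p.1 p.2

theorem lift_stX (r : ℕ) (t : K) : FreeGroup.lift (gen hD) (D.stX r t) = xG hD r t := by
  by_cases hr : r < D.nroots
  · rw [ScRels.stX_of_lt hr, FreeGroup.lift_apply_of]; rfl
  · rw [ScRels.stX_of_not_lt hr, map_one, xG_of_not_lt hD hr]

theorem lift_stWord (w : List (ℕ × K)) : FreeGroup.lift (gen hD) (D.stWord w) = wordG hD w := by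
  show FreeGroup.lift (gen hD) ((w.map fun p => D.stX p.1 p.2).prod) = (w.map fun p => xG hD p.1 p.2).prod
  rw [map_list_prod, List.map_map]
  congr 1
  exact List.map_congr_left fun p _ => lift_stX hD p.1 p.2

theorem lift_rel : ∀ r ∈ D.steinbergRelsAB K, FreeGroup.lift (gen hD) r = 1 := by
  rintro g (⟨r, t₁, t₂, _, rfl⟩ | ⟨r, s, t, u, hr, hs, hsr, hsn, rfl⟩)
  · rw [map_mul, map_mul, map_inv, lift_stX, lift_stX, lift_stX, xG_add, mul_inv_cancel]
  · rw [map_mul, map_mul, map_mul, map_mul, map_inv, map_inv, map_inv, lift_stX, lift_stX, lift_stWord]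
    have h : xG hD s u * xG hD r t = xG hD r t * xG hD s u * wordG hD (D.commWord K r s t u) := by
      apply Units.ext
      rw [Units.val_mul, Units.val_mul, Units.val_mul, coe_xG, coe_xG, coe_wordG]
      exact Cfsg.Agent.S1025.result D hD r s hr hs hsr hsn t u
    have h' : (xG hD s u)⁻¹ * (xG hD r t)⁻¹ * xG hD s u * xG hD r t = wordG hD (D.commWord K r s t u) := by
      rw [mul_assoc ((xG hD s u)⁻¹ * (xG hD r t)⁻¹), h]; group
    rw [h', mul_inv_cancel]

/-- The homomorphism into the general linear group. -/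
def thetaGL (K : Type u) [Field K] : D.SteinbergCover K →* GL D.Idx K :=
  PresentedGroup.toGroup (f := gen hD) (lift_rel (K := K) hD)

theorem thetaGL_scGen (r : ℕ) (t : K) : thetaGL hD K (D.scGen K r t) = xG hD r t := by
  by_cases hr : r < D.nroots
  · rw [ScRels.scGen_of_lt hr]
    exact PresentedGroup.toGroup.of (lift_rel hD)
  · rw [ScRels.scGen_of_not_lt hr, map_one, xG_of_not_lt hD hr]

theorem thetaGL_mem (g : D.SteinbergCover K) : thetaGL hD K g ∈ D.group K := by
  have h : g ∈ (D.group K).comap (thetaGL hD K) := by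
    apply ScRels.mem_of_gens
    intro r _ t
    rw [Subgroup.mem_comap, thetaGL_scGen]
    exact xG_mem_group hD r t
  exact h

/-- The homomorphism onto the Chevalley group. -/
def theta (K : Type u) [Field K] : D.SteinbergCover K →* ↥(D.group K) :=
  (thetaGL hD K).codRestrict (D.group K) (thetaGL_mem hD)

theorem coe_theta (g : D.SteinbergCover K) : ((theta hD K g : ↥(D.group K)) : GL D.Idx K) = thetaGL hD K g := rfl

theorem theta_scGen (r : ℕ) (t : K) :
    ((theta hD K (D.scGen K r t) : GL D.Idx K) : Matrix D.Idx D.Idx K) = D.x K r t := by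
  rw [coe_theta, thetaGL_scGen, coe_xG]

theorem theta_surjective : Function.Surjective (theta hD K) := by
  rintro ⟨g, hg⟩
  have h : D.group K ≤ (thetaGL hD K).range := by
    rw [group_le_iff hD]
    intro r _ t
    exact ⟨D.scGen K r t, thetaGL_scGen hD r t⟩
  obtain ⟨x, hx⟩ := h hg
  exact ⟨x, Subtype.ext hx⟩

end Cfsg.Agent.H133.ScTheta
end

-- part: H133/ScCentral
section
/-!
# The group presented by (R1), (R2) is a central extension of the Chevalley group

`ker_le_center`: for the seven tabulated data and any field, the kernel of `x̄_r(t) ↦ x_r(t)` from `D.SteinbergCover K` is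
contained in the centre. Also the conjugation formulas without the homomorphism as an argument (`n_conj`, `h_conj`).
-/

set_option autoImplicit false

namespace Cfsg.Agent.H133.ScCentral

open Cfsg.Lie Cfsg.Agent.ChevalleyStructure Cfsg.Agent.ChevalleyStructure.Elts
  Cfsg.Agent.H133.ScTheta Cfsg.Agent.H133.ScRels

universe u

variable {K : Type u} [Field K] {D : ChevalleyDatum} (hD : InList D)

include hD

/-- `n̄_p x̄_s(t) n̄_p⁻¹ = x̄_{w_p(s)}(η t)` in the group presented by (R1), (R2), for all roots `s`. -/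
theorem n_conj (i s : ℕ) (hi : i < D.rank) (hs : s < D.nroots) :
    ∃ η : ℤ, (η = 1 ∨ η = -1) ∧ ∀ t : K,
      mk D K (D.stN (D.simple i) 1) * D.scGen K s t =
        D.scGen K (D.reflectRoot i s) ((η : K) * t) * mk D K (D.stN (D.simple i) 1) :=
  ScPres.n_conj hD (thetaGL hD K) (fun r t _ => by rw [thetaGL_scGen, coe_xG]) i s hi hs

/-- `h̄_p(c) x̄_s(t) h̄_p(c)⁻¹ = x̄_s(c^{A_{p,s}} t)` in the group presented by (R1), (R2), for all roots `s`. -/
theorem h_conj (i s : ℕ) (hi : i < D.rank) (hs : s < D.nroots) (c : K) (hc : c ≠ 0) (t : K) :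
    mk D K (D.stH (D.simple i) c) * D.scGen K s t =
      D.scGen K s (c ^ (D.cartan i s) * t) * mk D K (D.stH (D.simple i) c) :=
  ScPres.h_conj hD (thetaGL hD K) (fun r t _ => by rw [thetaGL_scGen, coe_xG]) i s hi hs c hc t

/-- The homomorphism onto the Chevalley group is injective on `Ū = ⟨x̄_r(t) : r > 0⟩`. -/
theorem theta_inj_pos {g : D.SteinbergCover K}
    (hg : g ∈ Subgroup.closure {x | ∃ (r : ℕ) (t : K), D.IsPosRoot r ∧ x = D.scGen K r t})
    (h1 : thetaGL hD K g = 1) : g = 1 :=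
  ScPres.theta_inj_pos hD (thetaGL hD K) (fun r t _ => by rw [thetaGL_scGen, coe_xG]) hg h1

/-- The homomorphism onto the Chevalley group is injective on `V̄ = ⟨x̄_r(t) : r < 0⟩`. -/
theorem theta_inj_neg {g : D.SteinbergCover K}
    (hg : g ∈ Subgroup.closure {x | ∃ (r : ℕ) (t : K), r < D.nroots ∧ ¬ D.IsPosRoot r ∧ x = D.scGen K r t})
    (h1 : thetaGL hD K g = 1) : g = 1 :=
  ScPres.theta_inj_neg hD (thetaGL hD K) (fun r t _ => by rw [thetaGL_scGen, coe_xG]) hg h1

/-- The kernel lies in `H̄ = ⟨h̄_p(t) : p fundamental, t ≠ 0⟩`. -/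
theorem ker_le_H : (thetaGL hD K).ker ≤ ScKer.Hb D K :=
  ScKer.ker_le hD (thetaGL hD K) (fun r t _ => by rw [thetaGL_scGen, coe_xG])

/-- An element of `H̄` acts on each root subgroup by a scalar. -/
theorem exists_scalar {g : D.SteinbergCover K} (hg : g ∈ ScKer.Hb D K) {s : ℕ} (hs : s < D.nroots) :
    ∃ a : K, a ≠ 0 ∧ ∀ t : K, g * D.scGen K s t * g⁻¹ = D.scGen K s (a * t) := by
  unfold ScKer.Hb at hg
  induction hg using Subgroup.closure_induction with
  | one => exact ⟨1, one_ne_zero, fun t => by rw [one_mul, one_mul, inv_one, mul_one]⟩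
  | mem x hx =>
    obtain ⟨i, c, hi, hc, rfl⟩ := hx
    refine ⟨c ^ (D.cartan i s), zpow_ne_zero _ hc, fun t => ?_⟩
    rw [h_conj hD i s hi hs c hc t, mul_inv_cancel_right]
  | mul x y _ _ ihx ihy =>
    obtain ⟨a, ha, hx⟩ := ihx
    obtain ⟨b, hb, hy⟩ := ihy
    refine ⟨a * b, mul_ne_zero ha hb, fun t => ?_⟩
    have e : x * y * D.scGen K s t * (x * y)⁻¹ = x * (y * D.scGen K s t * y⁻¹) * x⁻¹ := by group
    rw [e, hy t, hx (b * t), mul_assoc]
  | inv x _ ih =>
    obtain ⟨a, ha, hx⟩ := ih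
    refine ⟨a⁻¹, inv_ne_zero ha, fun t => ?_⟩
    have h := hx (a⁻¹ * t)
    rw [mul_inv_cancel_left₀ ha] at h
    rw [← h]; group

/-- The kernel of the homomorphism onto the Chevalley group is central. -/
theorem kerGL_le_center : (thetaGL hD K).ker ≤ Subgroup.center (D.SteinbergCover K) := by
  intro g hg
  have hgH := ker_le_H hD hg
  have hg1 : thetaGL hD K g = 1 := MonoidHom.mem_ker.1 hg
  rw [Subgroup.mem_center_iff]
  have hcent : ∀ x : D.SteinbergCover K, x ∈ Subgroup.centralizer {g} := by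
    apply mem_of_gens
    intro s hs t
    obtain ⟨a, -, ha⟩ := exists_scalar hD hgH hs
    have h1 := congrArg (thetaGL hD K) (ha t)
    rw [map_mul, map_mul, map_inv, hg1, one_mul, inv_one, mul_one, thetaGL_scGen, thetaGL_scGen] at h1
    have h2 : t = a * t := xG_injective hD hs h1
    have h3 := ha t
    rw [← h2] at h3
    rw [Subgroup.mem_centralizer_singleton_iff]
    rw [mul_inv_eq_iff_eq_mul] at h3
    exact h3.symm
  intro x
  exact Subgroup.mem_centralizer_singleton_iff.1 (hcent x)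

theorem ker_theta : (theta hD K).ker = (thetaGL hD K).ker := by
  ext g
  rw [MonoidHom.mem_ker, MonoidHom.mem_ker, ← coe_theta]
  exact ⟨fun h => by rw [h]; rfl, fun h => Subtype.ext h⟩

theorem ker_le_center : (theta hD K).ker ≤ Subgroup.center (D.SteinbergCover K) := by
  rw [ker_theta]
  exact kerGL_le_center hD

end Cfsg.Agent.H133.ScCentral
end
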